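import Cfsg.Agent.Lib.BlockNil.Weight
import Cfsg.Agent.Lib.Glauberman.Lemma
import Cfsg.Agent.Lib.BlockT.NormalP

/-!
# Blocks of a normal subgroup of `p`-power index covered by a block

For `A ⊴ K ≤ G` with `K/A` a `p`-group and `x ∈ G` of order prime to `p`, normalizing `K` and `A` and
stabilizing a block `e` of `K`, some `x`-stable block of `A` is covered by `e` (Glauberman's lemma).
-/

set_option linter.unusedSectionVars false
set_option linter.style.haveILetI false
set_option autoImplicit false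

namespace Cfsg.Agent.Lib.BlockNil.Cover

open Cfsg MonoidAlgebra
open Cfsg.Agent.Lib.Blocks.Local Cfsg.Agent.Lib.Blocks.Central
open Cfsg.Agent.Lib.BlockH.Pairs Cfsg.Agent.Lib.BlockH.BrauerMap Cfsg.Agent.Lib.BlockH.Transport
open Cfsg.Agent.Lib.BlockT.Normal Cfsg.Agent.Lib.BlockT.NormalP
open Cfsg.Agent.Lib.Char.Conj

universe u

variable {G : Type u} [Group G] [Fintype G] {M : Ideal AlgInt} {p : ℕ} {A K : Subgroup G}

/-- The isomorphism from `A` to `A` as a subgroup of `K`. -/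
noncomputable abbrev ovE (hAK : A ≤ K) : A ≃* A.subgroupOf K := (Subgroup.subgroupOfEquivOfLe hAK).symm

@[simp] theorem coe_coe_ovE (hAK : A ≤ K) (a : A) : (((ovE hAK a : A.subgroupOf K) : K) : G) = a := by
  have := (Subgroup.subgroupOfEquivOfLe hAK).apply_symm_apply a
  exact (congrArg Subtype.val this)

@[simp] theorem coe_ovE_symm (hAK : A ≤ K) (n : A.subgroupOf K) : (((ovE hAK).symm n : A) : G) = ((n : K) : G) := rfl

/-- `ξ` lies over `φ`. -/
def Over [Fintype (A.subgroupOf K)] (hAK : A ≤ K) (ξ : IrrCharacter K) (φ : IrrCharacter A) : Prop :=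
  classInner (fun n : A.subgroupOf K => (ξ : K → ℂ) n)
    ((irrMap (ovE hAK) φ : IrrCharacter (A.subgroupOf K)) : A.subgroupOf K → ℂ) ≠ 0

theorem irrMap_conj_self {L : Subgroup G} {a : G} (ha : a ∈ L) (h : a ∈ Subgroup.normalizer (L : Set G))
    (χ : IrrCharacter L) : irrMap (conjOfNormalizer h) χ = χ := by
  apply Subtype.ext
  funext k
  rw [irrMap_apply]
  have h1 := Cfsg.Agent.Lib.Char.Basic.isClassFunction_of_isIrrCharacter χ.2 k (⟨a, ha⟩ : L)⁻¹
  have h2 : (conjOfNormalizer h).symm k = (⟨a, ha⟩ : L)⁻¹ * k * (⟨a, ha⟩ : L)⁻¹⁻¹ := by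
    apply Subtype.ext
    simp
  rw [h2, h1]

theorem blockMap_conj_self {L : Subgroup G} {a : G} (ha : a ∈ L) (h : a ∈ Subgroup.normalizer (L : Set G))
    (f : Set (IrrCharacter L)) : blockMap (conjOfNormalizer h) f = f := by
  ext χ
  rw [mem_blockMap_iff]
  have : (conjOfNormalizer h).symm = conjOfNormalizer (Subgroup.inv_mem _ h) := by
    ext k
    simp
  rw [this, irrMap_conj_self (L.inv_mem ha)]

theorem over_conj [Fintype (A.subgroupOf K)] (hAK : A ≤ K) {x : G} (hxK : x ∈ Subgroup.normalizer (K : Set G))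
    (hxA : x ∈ Subgroup.normalizer (A : Set G)) {ξ : IrrCharacter K} {φ : IrrCharacter A}
    (h : Over hAK ξ φ) : Over hAK (irrMap (conjOfNormalizer hxK) ξ) (irrMap (conjOfNormalizer hxA) φ) := by
  intro h0
  apply h
  rw [classInner] at h0 ⊢
  have hc : (Nat.card (A.subgroupOf K) : ℂ)⁻¹ ≠ 0 := inv_ne_zero (by exact_mod_cast Nat.card_pos.ne')
  have h1 := (mul_eq_zero.mp h0).resolve_left hc
  let τ : A.subgroupOf K ≃* A.subgroupOf K :=
    (ovE hAK).symm.trans ((conjOfNormalizer hxA).trans (ovE hAK))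
  rw [← Equiv.sum_comp τ.toEquiv] at h1
  have hs : ∀ n : A.subgroupOf K,
      ((irrMap (conjOfNormalizer hxK) ξ : IrrCharacter K) : K → ℂ) ((τ.toEquiv n : A.subgroupOf K) : K) *
        (starRingEnd ℂ) (((irrMap (ovE hAK) (irrMap (conjOfNormalizer hxA) φ) : IrrCharacter (A.subgroupOf K)) : A.subgroupOf K → ℂ) (τ.toEquiv n)) =
      (ξ : K → ℂ) n * (starRingEnd ℂ) (((irrMap (ovE hAK) φ : IrrCharacter (A.subgroupOf K)) : A.subgroupOf K → ℂ) n) := by
    intro n
    have e1 : (τ n : A.subgroupOf K) = ovE hAK (conjOfNormalizer hxA ((ovE hAK).symm n)) := rfl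
    have e2 : ((irrMap (conjOfNormalizer hxK) ξ : IrrCharacter K) : K → ℂ) ((τ n : A.subgroupOf K) : K) =
        (ξ : K → ℂ) n := by
      rw [irrMap_apply]
      have e : (conjOfNormalizer hxK).symm ((τ n : A.subgroupOf K) : K) = (n : K) := by
        apply Subtype.ext
        rw [coe_conjOfNormalizer_symm, e1, coe_coe_ovE, coe_conjOfNormalizer]
        simp
        group
      rw [e]
    have e3 : ((irrMap (ovE hAK) (irrMap (conjOfNormalizer hxA) φ) : IrrCharacter (A.subgroupOf K)) :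
        A.subgroupOf K → ℂ) (τ n) = ((irrMap (ovE hAK) φ : IrrCharacter (A.subgroupOf K)) : A.subgroupOf K → ℂ) n := by
      rw [irrMap_apply, irrMap_apply, irrMap_apply]
      have e : (conjOfNormalizer hxA).symm ((ovE hAK).symm (τ n)) = (ovE hAK).symm n := by
        apply Subtype.ext
        rw [coe_conjOfNormalizer_symm, e1]
        simp
        group
      rw [e]
    simp only [MulEquiv.toEquiv_eq_coe, EquivLike.coe_coe]
    rw [e2, e3]
  rw [Finset.sum_congr rfl (fun n _ => hs n)] at h1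
  rw [h1, mul_zero]

/-- Elements of a subgroup stabilize its blocks. -/
theorem stabilizesBlock_of_self {L : Subgroup G} {a : G} (ha : a ∈ L) (f : Set (IrrCharacter L)) :
    StabilizesBlock L f a := by
  refine ⟨Subgroup.le_normalizer ha, fun χ hχ => ⟨χ, hχ, fun k k' hk' => ?_⟩⟩
  have h1 := Cfsg.Agent.Lib.Char.Basic.isClassFunction_of_isIrrCharacter χ.2 k ⟨a, ha⟩
  have h2 : k' = ⟨a, ha⟩ * k * (⟨a, ha⟩ : L)⁻¹ := by
    apply Subtype.ext
    rw [hk']
    rfl
  rw [h2, h1]

/-- **An `x`-stable block of `A` covered by `e`.** -/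
theorem exists_stable_covered [Fact p.Prime] (hM : IsPModular p M) (hAK : A ≤ K)
    [Fintype (A.subgroupOf K)] [Fintype K]
    (hn : (A.subgroupOf K).Normal) (hidx : ∃ k : ℕ, (A.subgroupOf K).index = p ^ k)
    {e : Set (IrrCharacter K)} (he : IsPBlock M e) {x : G}
    (hxK : x ∈ Subgroup.normalizer (K : Set G)) (hxA : x ∈ Subgroup.normalizer (A : Set G))
    (hxs : StabilizesBlock K e x) (hreg : IsPRegular p x) :
    ∃ f : Set (IrrCharacter A), IsPBlock M f ∧ StabilizesBlock A f x ∧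
      ∃ ξ ∈ e, ∃ φ ∈ f, Over hAK ξ φ := by
  classical
  haveI := isPrime_of_pModular hM
  have hKA : K ≤ Subgroup.normalizer (A : Set G) := by
    intro k hk
    have h1 := (Subgroup.normal_subgroupOf_iff_le_normalizer hAK).mp hn
    exact h1 hk
  set Y : Subgroup G := Subgroup.normalizer (A : Set G) ⊓ Subgroup.normalizer (K : Set G) with hY
  have hKY : K ≤ Y := le_inf hKA Subgroup.le_normalizer
  have hxY : x ∈ Y := ⟨hxA, hxK⟩
  have hSY : Subgroup.zpowers x ≤ Y := Subgroup.zpowers_le.mpr hxY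
  have hSK : Subgroup.zpowers x ≤ Subgroup.normalizer (K : Set G) := hSY.trans inf_le_right
  letI act : MulAction Y {f : Set (IrrCharacter A) // IsPBlock M f} := blockAction M A Y inf_le_left
  let α : K →* Equiv.Perm {f : Set (IrrCharacter A) // IsPBlock M f} :=
    (MulAction.toPermHom Y _).comp (Subgroup.inclusion hKY)
  let β : Subgroup.zpowers x →* Equiv.Perm {f : Set (IrrCharacter A) // IsPBlock M f} :=
    (MulAction.toPermHom Y _).comp (Subgroup.inclusion hSY)
  let φa : Subgroup.zpowers x →* MulAut K := MonoidHom.mk' (fun s => conjOfNormalizer (hSK s.2)) (by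
    intro a b
    have := conjOfNormalizer_mul (hSK a.2) (hSK b.2) (hSK (a * b).2)
    exact this)
  have hφa : ∀ (s : Subgroup.zpowers x) (g : K), ((φa s g : K) : G) = s * g * (s : G)⁻¹ := fun _ _ => rfl
  have hφ : ∀ s, ∀ n ∈ A.subgroupOf K, φa s n ∈ A.subgroupOf K := by
    intro s n hn'
    rw [Subgroup.mem_subgroupOf] at hn' ⊢
    rw [hφa]
    exact (Subgroup.mem_normalizer_iff.mp (hSY s.2).1 _).mp hn'
  have hαN : ∀ n ∈ A.subgroupOf K, α n = 1 := by
    intro n hn'
    refine Equiv.ext fun ω => Subtype.ext ?_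
    exact blockMap_conj_self (Subgroup.mem_subgroupOf.mp hn') _ ω.1
  have hcomp : ∀ s g ω, β s (α g ω) = α (φa s g) (β s ω) := by
    intro s g ω
    change (Subgroup.inclusion hSY s) • (Subgroup.inclusion hKY g) • ω =
      (Subgroup.inclusion hKY (φa s g)) • (Subgroup.inclusion hSY s) • ω
    rw [smul_smul, smul_smul]
    congr 1
    apply Subtype.ext
    change (s : G) * g = (s * g * (s : G)⁻¹) * s
    group
  let P : {f : Set (IrrCharacter A) // IsPBlock M f} → Prop :=
    fun ω => ∃ ξ ∈ e, ∃ φ ∈ ω.1, Over hAK ξ φ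
  have hPgen : ∀ (y : Y) (ω : {f : Set (IrrCharacter A) // IsPBlock M f}),
      StabilizesBlock K e (y : G) → P ω → P (y • ω) := by
    rintro y ω hys ⟨ξ, hξ, φ, hφ', h⟩
    refine ⟨irrMap (conjOfNormalizer y.2.2) ξ, ?_, irrMap (conjOfNormalizer y.2.1) φ,
      irrMap_mem_blockMap _ _ hφ', over_conj hAK y.2.2 y.2.1 h⟩
    have h1 := (stabilizesBlock_iff he y.2.2).mp hys
    rw [← h1]
    exact irrMap_mem_blockMap _ _ hξ
  have hPα : ∀ g ω, P ω → P (α g ω) := fun g ω h =>
    hPgen _ ω (stabilizesBlock_of_self g.2 e) h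
  have hSs : ∀ s : Subgroup.zpowers x, StabilizesBlock K e (s : G) := by
    letI act2 : MulAction Y {f : Set (IrrCharacter K) // IsPBlock M f} := blockAction M K Y inf_le_right
    have hx1 : (⟨x, hxY⟩ : Y) ∈ MulAction.stabilizer Y (⟨e, he⟩ : {f : Set (IrrCharacter K) // IsPBlock M f}) := by
      rw [MulAction.mem_stabilizer_iff]
      apply Subtype.ext
      exact (stabilizesBlock_iff he hxK).mp hxs
    have hle : Subgroup.zpowers x ≤ (MulAction.stabilizer Y
        (⟨e, he⟩ : {f : Set (IrrCharacter K) // IsPBlock M f})).map Y.subtype :=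
      Subgroup.zpowers_le.mpr ⟨⟨x, hxY⟩, hx1, rfl⟩
    intro s
    obtain ⟨y, hy, hys⟩ := hle s.2
    have hy' := MulAction.mem_stabilizer_iff.mp hy
    have h2 := congrArg Subtype.val hy'
    have h3 : (y : G) = s := hys
    have h4 : StabilizesBlock K e (y : G) := (stabilizesBlock_iff he y.2.2).mpr h2
    rwa [h3] at h4
  have hPβ : ∀ s ω, P ω → P (β s ω) := fun s ω h => hPgen _ ω (hSs s) h
  have htrans : ∀ ω ω', P ω → P ω' → ∃ g, α g ω = ω' := by
    rintro ω ω' ⟨ξ, hξ, φ, hφ', h⟩ ⟨ξ', hξ', φ', hφ'', h'⟩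
    have hsame : SameBlock M (ξ : K → ℂ) (ξ' : K → ℂ) := by
      rw [isPBlock_eq_blockOf he hξ] at hξ'
      exact hξ'
    have hloc : ∀ n : A.subgroupOf K, MemLocalRing M (blockCoeff (orbitSet hn
        (blockOf M ((irrMap (ovE hAK) φ : IrrCharacter (A.subgroupOf K)) : A.subgroupOf K → ℂ))) n) :=
      memLocalRing_blockCoeff_of_union M (fun ψ hψ => blockOf_subset_orbitSet hn M ⟨_, rfl⟩ hψ)
    obtain ⟨g, θ, hθ, hg⟩ := mem_orbitSet_of_sameBlock hn M hloc hsame (mem_blockOf_self _) h h'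
    refine ⟨g⁻¹, Subtype.ext ?_⟩
    have hgY : ((g⁻¹ : K) : G) ∈ Y := hKY (g⁻¹).2
    -- `φ₁`
    let φ₁ : IrrCharacter A := irrMap (conjOfNormalizer hgY.1).symm φ'
    have hφ₁ : irrMap (ovE hAK) φ₁ = θ := by
      apply Subtype.ext
      funext n
      have h1 := congrFun (congrArg Subtype.val hg)
      rw [irrMap_apply, irrMap_apply]
      have e0 : ((conjOfNormalizer hgY.1).symm.symm ((ovE hAK).symm n) : A) =
          (ovE hAK).symm (⟨g⁻¹ * n * g, hn.conj_mem n n.2 g⁻¹ |> fun h2 => by simpa using h2⟩) := by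
        apply Subtype.ext
        simp
      rw [e0]
      have h5 := h1 ⟨g⁻¹ * n * g, hn.conj_mem n n.2 g⁻¹ |> fun h2 => by simpa using h2⟩
      rw [irrMap_apply] at h5
      rw [h5]
      change (θ : A.subgroupOf K → ℂ) _ = _
      have key : ∀ m : A.subgroupOf K, (m : K) = n → (θ : A.subgroupOf K → ℂ) m = (θ : A.subgroupOf K → ℂ) n := by
        rintro m hm
        rw [show m = n from Subtype.ext hm]
      refine key _ ?_
      simp
      group
    have hφ₁ω : φ₁ ∈ ω.1 := by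
      rw [isPBlock_eq_blockOf ω.2 hφ']
      have hθ' : SameBlock M ((irrMap (ovE hAK) φ : IrrCharacter (A.subgroupOf K)) : A.subgroupOf K → ℂ)
          (θ : A.subgroupOf K → ℂ) := hθ
      rw [← hφ₁] at hθ'
      exact (sameBlock_comp_iff (ovE hAK).symm).mp hθ'
    have hmem : φ' ∈ ((Subgroup.inclusion hKY g⁻¹) • ω).1 := by
      change φ' ∈ blockMap (conjOfNormalizer hgY.1) ω.1
      rw [mem_blockMap_iff]
      exact hφ₁ω
    have h6 := isPBlock_eq_blockOf ((Subgroup.inclusion hKY g⁻¹) • ω).2 hmem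
    have h7 := isPBlock_eq_blockOf ω'.2 hφ''
    change ((Subgroup.inclusion hKY g⁻¹) • ω).1 = ω'.1
    rw [h6, h7]
  have hcop : (A.subgroupOf K).index.Coprime (Nat.card (Subgroup.zpowers x)) := by
    obtain ⟨k, hk⟩ := hidx
    rw [hk, Nat.card_zpowers]
    exact Nat.Coprime.pow_left _ ((Nat.Prime.coprime_iff_not_dvd Fact.out).mpr hreg)
  have hsolv : Group.IsSolvable (K ⧸ A.subgroupOf K) ∨ Group.IsSolvable (Subgroup.zpowers x) := by
    left
    haveI := hn
    obtain ⟨k, hk⟩ := hidx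
    have hp : IsPGroup p (K ⧸ A.subgroupOf K) := IsPGroup.of_card (n := k) (by
      rw [← Subgroup.index_eq_card, hk])
    haveI := hp.isNilpotent
    infer_instance
  -- a starting point
  obtain ⟨ξ, hξ⟩ := isPBlock_nonempty he
  obtain ⟨θ, hθ⟩ := exists_constituent (N := A.subgroupOf K) ξ
  have hω₀ : P ⟨blockOf M ((irrMap (ovE hAK).symm θ : IrrCharacter A) : A → ℂ), ⟨_, rfl⟩⟩ := by
    refine ⟨ξ, hξ, irrMap (ovE hAK).symm θ, mem_blockOf_self _, ?_⟩
    have h1 : irrMap (ovE hAK) (irrMap (ovE hAK).symm θ) = θ := (irrEquiv (ovE hAK)).right_inv θ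
    rw [Over, h1]
    exact hθ
  haveI : (A.subgroupOf K).Normal := hn
  obtain ⟨ω, hPω, hfix⟩ := Cfsg.Agent.Lib.Glauberman.Lemma.glauberman_lemma' (A.subgroupOf K) φa hφ α hαN β hcomp P hPα hPβ htrans hcop hsolv hω₀
  obtain ⟨ξ₁, hξ₁, φ₁, hφ₁, h₁⟩ := hPω
  refine ⟨ω.1, ω.2, ?_, ξ₁, hξ₁, φ₁, hφ₁, h₁⟩
  refine (stabilizesBlock_iff ω.2 hxA).mpr ?_
  have := congrArg Subtype.val (hfix ⟨x, Subgroup.mem_zpowers x⟩)
  exact this

end Cfsg.Agent.Lib.BlockNil.Cover
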