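import Cfsg.Agent.Lib.BlockNil.Cover
import Cfsg.Agent.Lib.BlockPi.Main

/-!
# Nilpotent blocks and normal subgroups of `p`-power index
-/

set_option linter.unusedSectionVars false
set_option linter.style.haveILetI false
set_option autoImplicit false

namespace Cfsg.Agent.Lib.BlockNil.Index

open Cfsg MonoidAlgebra
open Cfsg.Agent.Lib.Blocks.Local Cfsg.Agent.Lib.Blocks.Central Cfsg.Agent.Lib.Blocks.Brauer
open Cfsg.Agent.Lib.Blocks.Induced
open Cfsg.Agent.Lib.BlockH.Pairs Cfsg.Agent.Lib.BlockH.BrauerMap Cfsg.Agent.Lib.BlockH.Transport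
open Cfsg.Agent.Lib.BlockH.Subpair Cfsg.Agent.Lib.BlockH.SubpairLE Cfsg.Agent.Lib.BlockH.ConjPair
open Cfsg.Agent.Lib.BlockH.Descent Cfsg.Agent.Lib.BlockH.StableIndex
open Cfsg.Agent.Lib.BlockT.Normal Cfsg.Agent.Lib.BlockT.NormalP
open Cfsg.Agent.Lib.BlockNil.Cover
open Cfsg.Agent.Lib.BlockPi.Main

universe u

variable {G : Type u} [Group G] {M : Ideal AlgInt} {p : ℕ} {N X : Subgroup G} {X' : Subgroup N}

/-- `C_N(X)` as a subgroup of `G`. -/
abbrev cenA (N X : Subgroup G) : Subgroup G := N ⊓ Subgroup.centralizer (X : Set G)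

theorem cenA_le : cenA N X ≤ Subgroup.centralizer (X : Set G) := inf_le_right

/-- The centralizer in `N` is `N ⊓ C_G(X)`. -/
def cenNEquiv (h : X'.map N.subtype = X) : Subgroup.centralizer (X' : Set N) ≃* cenA N X where
  toFun c := ⟨((c : N) : G), (c : N).2, by
    subst h
    refine Subgroup.mem_centralizer_iff.mpr ?_
    rintro _ ⟨q, hq, rfl⟩
    exact congrArg Subtype.val (Subgroup.mem_centralizer_iff.mp c.2 q hq)⟩
  invFun a := ⟨⟨a, a.2.1⟩, by
    rw [Subgroup.mem_centralizer_iff]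
    intro q hq
    apply Subtype.ext
    exact Subgroup.mem_centralizer_iff.mp a.2.2 (q : G) (h ▸ ⟨q, hq, rfl⟩)⟩
  left_inv c := rfl
  right_inv a := rfl
  map_mul' a b := rfl

@[simp] theorem coe_cenNEquiv (h : X'.map N.subtype = X) (c : Subgroup.centralizer (X' : Set N)) :
    ((cenNEquiv h c : cenA N X) : G) = ((c : N) : G) := rfl

@[simp] theorem coe_cenNEquiv_symm (h : X'.map N.subtype = X) (a : cenA N X) :
    (((cenNEquiv h).symm a : Subgroup.centralizer (X' : Set N)) : N) = ⟨a, a.2.1⟩ := rfl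

theorem cenA_normal (hN : N.Normal) :
    ((cenA N X).subgroupOf (Subgroup.centralizer (X : Set G))).Normal := by
  refine ⟨fun n hn g => ?_⟩
  rw [Subgroup.mem_subgroupOf] at hn ⊢
  refine ⟨hN.conj_mem _ hn.1 _, ?_⟩
  exact (g * n * g⁻¹).2

theorem cenA_index (hN : N.Normal) (hidx : ∃ k : ℕ, N.index = p ^ k) (hp : p.Prime) :
    ∃ k : ℕ, ((cenA N X).subgroupOf (Subgroup.centralizer (X : Set G))).index = p ^ k := by
  obtain ⟨k, hk⟩ := hidx
  have h1 : (cenA N X).subgroupOf (Subgroup.centralizer (X : Set G)) =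
      N.subgroupOf (Subgroup.centralizer (X : Set G)) := by
    ext c
    simp [Subgroup.mem_subgroupOf]
  rw [h1]
  have h2 : N.subgroupOf (Subgroup.centralizer (X : Set G)) = N.subgroupOf (Subgroup.centralizer (X : Set G)) := rfl
  have h3 : (N.subgroupOf (Subgroup.centralizer (X : Set G))).index ∣ N.index := by
    have := Subgroup.relIndex_dvd_index_of_normal N (Subgroup.centralizer (X : Set G))
    exact this
  rw [hk] at h3
  obtain ⟨j, -, hj⟩ := (Nat.dvd_prime_pow hp).mp h3
  exact ⟨j, hj⟩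

section Formula

variable [Fintype G]

theorem brauerOmega_of_over [Fintype (Subgroup.centralizer (X : Set G))]
    [Fintype ((cenA N X).subgroupOf (Subgroup.centralizer (X : Set G)))]
    [Fintype (Subgroup.centralizer (X' : Set N))] (hN : N.Normal) {β : G → ℂ} (hsupp : ∀ g, g ∉ N → β g = 0)
    (hinv : ∀ g h : G, β (h * g * h⁻¹) = β g) (h : X'.map N.subtype = X)
    {ξ : IrrCharacter (Subgroup.centralizer (X : Set G))} {φ : IrrCharacter (cenA N X)}
    (hover : Over cenA_le ξ φ) :
    brauerOmega X β (ξ : Subgroup.centralizer (X : Set G) → ℂ) =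
      brauerOmega X' (fun n : N => β n)
        ((irrMap (cenNEquiv h).symm φ : IrrCharacter (Subgroup.centralizer (X' : Set N))) :
          Subgroup.centralizer (X' : Set N) → ℂ) := by
  classical
  have hA := cenA_normal (X := X) hN
  rw [brauerOmega, brauerOmega, finsum_eq_sum_of_fintype, finsum_eq_sum_of_fintype, ← Finset.sum_div,
    ← Finset.sum_div]
  rw [sum_eq_sum_subgroup ((cenA N X).subgroupOf (Subgroup.centralizer (X : Set G)))
    (fun k : Subgroup.centralizer (X : Set G) => β k * (ξ : Subgroup.centralizer (X : Set G) → ℂ) k)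
    (fun k hk => by
      have : (k : G) ∉ N := fun hn => hk (Subgroup.mem_subgroupOf.mpr ⟨hn, k.2⟩)
      rw [hsupp _ this, zero_mul])]
  have ha : ∀ (t : Subgroup.centralizer (X : Set G)) (n : (cenA N X).subgroupOf (Subgroup.centralizer (X : Set G))),
      β ((⟨t * n * t⁻¹, hA.conj_mem n n.2 t⟩ : (cenA N X).subgroupOf (Subgroup.centralizer (X : Set G))) : Subgroup.centralizer (X : Set G)) =
        β ((n : Subgroup.centralizer (X : Set G)) : G) := by
    intro t n
    exact hinv _ _
  have h1 := sum_mul_eq_of_constituent hA ξ.2 (irrMap (ovE cenA_le) φ).2 hover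
    (fun n : (cenA N X).subgroupOf (Subgroup.centralizer (X : Set G)) => β ((n : Subgroup.centralizer (X : Set G)) : G)) ha
  rw [h1]
  have h2 : ((irrMap (ovE cenA_le) φ : IrrCharacter ((cenA N X).subgroupOf (Subgroup.centralizer (X : Set G)))) :
      (cenA N X).subgroupOf (Subgroup.centralizer (X : Set G)) → ℂ) 1 =
      ((irrMap (cenNEquiv h).symm φ : IrrCharacter (Subgroup.centralizer (X' : Set N))) :
          Subgroup.centralizer (X' : Set N) → ℂ) 1 := by
    rw [irrMap_apply, irrMap_apply, map_one, map_one]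
  rw [h2]
  congr 1
  let τ : Subgroup.centralizer (X' : Set N) ≃* (cenA N X).subgroupOf (Subgroup.centralizer (X : Set G)) :=
    (cenNEquiv h).trans (ovE cenA_le)
  rw [← Equiv.sum_comp τ.toEquiv]
  refine Finset.sum_congr rfl fun c _ => ?_
  have e1 : ((((τ c : (cenA N X).subgroupOf (Subgroup.centralizer (X : Set G))) : Subgroup.centralizer (X : Set G))) : G) = ((c : N) : G) := by
    change (((ovE cenA_le (cenNEquiv h c) : (cenA N X).subgroupOf (Subgroup.centralizer (X : Set G))) : Subgroup.centralizer (X : Set G)) : G) = _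
    rw [coe_coe_ovE]
    rfl
  simp only [MulEquiv.toEquiv_eq_coe, EquivLike.coe_coe]
  rw [e1]
  congr 1

end Formula

section Main

variable [Fintype G]

theorem normalizer_cenA {x : G} (hN : N.Normal) (hxX : x ∈ Subgroup.normalizer (X : Set G)) :
    x ∈ Subgroup.normalizer ((cenA N X : Subgroup G) : Set G) := by
  rw [Subgroup.mem_normalizer_iff]
  intro y
  have h1 := Subgroup.mem_normalizer_iff.mp (mem_normalizer_centralizer hxX) y
  constructor
  · rintro ⟨h2, h3⟩
    exact ⟨hN.conj_mem _ h2 _, h1.mp h3⟩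
  · rintro ⟨h2, h3⟩
    refine ⟨?_, h1.mpr h3⟩
    have := hN.conj_mem _ h2 x⁻¹
    simpa [mul_assoc] using this

theorem sameBlock_over [Fact p.Prime] {A K : Subgroup G} (hM : IsPModular p M) (hAK : A ≤ K)
    [Fintype K] [Fintype (A.subgroupOf K)] (hn : (A.subgroupOf K).Normal)
    (hidx : ∃ k : ℕ, (A.subgroupOf K).index = p ^ k) {ξ ξ' : IrrCharacter K} {φ φ' : IrrCharacter A}
    (h : SameBlock M (φ : A → ℂ) (φ' : A → ℂ)) (h1 : Over hAK ξ φ) (h2 : Over hAK ξ' φ') :
    SameBlock M (ξ : K → ℂ) (ξ' : K → ℂ) := by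
  have hs : SameBlock M ((irrMap (ovE hAK) φ : IrrCharacter (A.subgroupOf K)) : A.subgroupOf K → ℂ)
      ((irrMap (ovE hAK) φ' : IrrCharacter (A.subgroupOf K)) : A.subgroupOf K → ℂ) :=
    sameBlock_comp' (ovE hAK).symm h
  have h1' : classInner (fun n : A.subgroupOf K => (ξ : K → ℂ) n)
    ((irrMap (ovE hAK) φ : IrrCharacter (A.subgroupOf K)) : A.subgroupOf K → ℂ) ≠ 0 := h1
  have h2' : classInner (fun n : A.subgroupOf K => (ξ' : K → ℂ) n)
    ((irrMap (ovE hAK) φ' : IrrCharacter (A.subgroupOf K)) : A.subgroupOf K → ℂ) ≠ 0 := h2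
  exact sameBlock_of_constituents (N := A.subgroupOf K) (χ := ξ) (χ' := ξ') hM hn hidx hs h1' h2'

/-- **From a nilpotent block of `G` to a nilpotent block of `N`.** -/
theorem nilpotent_of_nilpotent [Fact p.Prime] (hM : IsPModular p M) (hN : N.Normal)
    (hidx : ∃ k : ℕ, N.index = p ^ k) {c : Set (IrrCharacter N)} (hc : IsPBlock M c)
    {B : Set (IrrCharacter G)} (hB : IsPBlock M B)
    (hBc : ∀ g : G, blockCoeff B g = subgroupBlockCoeff N c g)
    (hnil : IsNilpotentBlock p M B) : IsNilpotentBlock p M c := by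
  classical
  have hpp : p.Prime := Fact.out
  haveI := isPrime_of_pModular hM
  haveI := Cfsg.Agent.Lib.Char.Ortho.finite_irrCharacter (G := G)
  letI : Fintype (IrrCharacter G) := Fintype.ofFinite _
  refine ⟨hc, fun Q' f hf x hxQ hxs hreg => ?_⟩
  obtain ⟨X, hX⟩ : ∃ X : Subgroup G, Q'.map N.subtype = X := ⟨_, rfl⟩
  letI : Fintype (Subgroup.centralizer (X : Set G)) := Fintype.ofFinite _
  letI : Fintype (Subgroup.centralizer (Q' : Set N)) := Fintype.ofFinite _
  letI : Fintype (cenA N X) := Fintype.ofFinite _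
  letI : Fintype ((cenA N X).subgroupOf (Subgroup.centralizer (X : Set G))) := Fintype.ofFinite _
  haveI := Cfsg.Agent.Lib.Char.Ortho.finite_irrCharacter (G := Subgroup.centralizer (X : Set G))
  letI : Fintype (IrrCharacter (Subgroup.centralizer (X : Set G))) := Fintype.ofFinite _
  have hXp : IsPGroup p X := (isPGroup_iff_of_map hX).mpr hf.1.1
  have hxX : (x : G) ∈ Subgroup.normalizer (X : Set G) := (normalizer_iff_of_map hX).mpr hxQ
  have hxK : (x : G) ∈ Subgroup.normalizer ((Subgroup.centralizer (X : Set G) : Subgroup G) : Set G) :=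
    mem_normalizer_centralizer hxX
  have hxA : (x : G) ∈ Subgroup.normalizer ((cenA N X : Subgroup G) : Set G) := normalizer_cenA hN hxX
  -- the block of `N ⊓ C_G(X)`
  have hf₂ : IsPBlock M (blockMap (cenNEquiv hX) f) := isPBlock_blockMap _ hf.1.2
  have hxs₂ : StabilizesBlock (cenA N X) (blockMap (cenNEquiv hX) f) (x : G) :=
    stabilizesBlock_transport (cenNEquiv hX) hxA (fun k k' hk' => by
      apply Subtype.ext
      exact hk') hxs
  obtain ⟨φ₀, hφ₀⟩ := isPBlock_nonempty hf.1.2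
  set φ : IrrCharacter (cenA N X) := irrMap (cenNEquiv hX) φ₀ with hφ
  have hφf : φ ∈ blockMap (cenNEquiv hX) f := irrMap_mem_blockMap _ _ hφ₀
  have hA := cenA_normal (X := X) hN
  obtain ⟨ξ, hξ⟩ := exists_irr_over (irrMap (ovE (cenA_le (N := N) (X := X))) φ)
  have hover : Over cenA_le ξ φ := hξ
  -- the formula
  have hsupp : ∀ g, g ∉ N → blockCoeff B g = 0 := by
    intro g hg
    rw [hBc, subgroupBlockCoeff, dif_neg hg]
  have hinv : ∀ g h : G, blockCoeff B (h * g * h⁻¹) = blockCoeff B g := fun g h =>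
    blockCoeff_conj_invariant B g h
  have hform := brauerOmega_of_over hN hsupp hinv hX hover
  have hcf : (fun n : N => blockCoeff B (n : G)) = blockCoeff c := by
    funext n
    rw [hBc, subgroupBlockCoeff, dif_pos n.2]
  rw [hcf] at hform
  have hφ₀e : irrMap (cenNEquiv hX).symm φ = φ₀ := (irrEquiv (cenNEquiv hX)).left_inv φ₀
  rw [hφ₀e] at hform
  have h1 : MemLocalIdeal M (brauerOmega X (blockCoeff B) (ξ : Subgroup.centralizer (X : Set G) → ℂ) - 1) := by
    rw [hform]
    exact hf.2.2 φ₀ hφ₀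
  rw [brauerOmega_blockCoeff] at h1
  have hpair := isBrauerPairOf_blockOf hM hXp hB ξ h1
  -- stability
  have hsame : SameBlock M (ξ : Subgroup.centralizer (X : Set G) → ℂ)
      ((irrMap (conjOfNormalizer hxK) ξ : IrrCharacter (Subgroup.centralizer (X : Set G))) :
        Subgroup.centralizer (X : Set G) → ℂ) := by
    have hc' := over_conj cenA_le hxK hxA hover
    have h2 : irrMap (conjOfNormalizer hxA) φ ∈ blockMap (cenNEquiv hX) f := by
      have := (stabilizesBlock_iff hf₂ hxA).mp hxs₂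
      rw [← this]
      exact irrMap_mem_blockMap _ _ hφf
    have h3 : SameBlock M (φ : cenA N X → ℂ) ((irrMap (conjOfNormalizer hxA) φ : IrrCharacter (cenA N X)) : cenA N X → ℂ) := by
      rw [isPBlock_eq_blockOf hf₂ hφf] at h2
      exact h2
    exact sameBlock_over hM cenA_le hA (cenA_index hN hidx hpp) h3 hover hc'
  have hst : StabilizesBlock (Subgroup.centralizer (X : Set G))
      (blockOf M (ξ : Subgroup.centralizer (X : Set G) → ℂ)) (x : G) := by
    refine (stabilizesBlock_iff ⟨ξ, rfl⟩ hxK).mpr ?_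
    rw [blockMap_blockOf]
    exact (isPBlock_eq_blockOf (⟨ξ, rfl⟩ : IsPBlock M (blockOf M (ξ : Subgroup.centralizer (X : Set G) → ℂ))) hsame).symm
  have hreg' : IsPRegular p (x : G) := by
    rw [IsPRegular, Subgroup.orderOf_coe]
    exact hreg
  have hfinal := hnil.2 X _ hpair (x : G) hxX hst hreg'
  rw [Subgroup.mem_centralizer_iff]
  intro q hq
  apply Subtype.ext
  exact Subgroup.mem_centralizer_iff.mp hfinal (q : G) (hX ▸ ⟨q, hq, rfl⟩)

/-- A `p'`-element of `N` normalizing a `p`-group `Q` and centralizing `Q ⊓ N` centralizes `Q`. -/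
theorem centralizes_of_inf {Q : Subgroup G} (hN : N.Normal) (hp : p.Prime) {x : G} (hxN : x ∈ N)
    (hxQ : x ∈ Subgroup.normalizer (Q : Set G)) (hQp : IsPGroup p Q) (hreg : IsPRegular p x)
    (hc : ∀ z ∈ Q ⊓ N, x * z = z * x) : x ∈ Subgroup.centralizer (Q : Set G) := by
  haveI := Fact.mk hp
  rw [Subgroup.mem_centralizer_iff]
  intro q hq
  have hqx : x * q * x⁻¹ ∈ Q := (Subgroup.mem_normalizer_iff.mp hxQ q).mp hq
  set z : G := x * q * x⁻¹ * q⁻¹ with hz
  have hzQ : z ∈ Q := Q.mul_mem hqx (Q.inv_mem hq)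
  have hzN : z ∈ N := by
    have h1 : q * x⁻¹ * q⁻¹ ∈ N := hN.conj_mem _ (N.inv_mem hxN) q
    have h2 : z = x * (q * x⁻¹ * q⁻¹) := by rw [hz]; group
    rw [h2]
    exact N.mul_mem hxN h1
  have hxz := hc z ⟨hzQ, hzN⟩
  have hpow : ∀ n : ℕ, x ^ n * q * (x ^ n)⁻¹ = z ^ n * q := by
    intro n
    induction n with
    | zero => simp
    | succ n ih =>
      have e1 : x ^ (n + 1) * q * (x ^ (n + 1))⁻¹ = x * (x ^ n * q * (x ^ n)⁻¹) * x⁻¹ := by
        rw [pow_succ']; group
      rw [e1, ih]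
      have hxzn : x * z ^ n = z ^ n * x := by
        have : Commute x (z ^ n) := (show Commute x z from hxz).pow_right n
        exact this
      have e2 : x * q * x⁻¹ = z * q := by rw [hz]; group
      calc x * (z ^ n * q) * x⁻¹ = (x * z ^ n) * q * x⁻¹ := by group
        _ = z ^ n * (x * q * x⁻¹) := by rw [hxzn]; group
        _ = z ^ n * (z * q) := by rw [e2]
        _ = z ^ (n + 1) * q := by rw [pow_succ]; group
  have h3 := hpow (orderOf x)
  rw [pow_orderOf_eq_one] at h3
  have h4 : z ^ orderOf x = 1 := by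
    have : q = z ^ orderOf x * q := by simpa using h3
    exact (mul_eq_right.mp this.symm)
  obtain ⟨k, hk⟩ := IsPGroup.iff_orderOf.mp hQp ⟨z, hzQ⟩
  have hk' : orderOf z = p ^ k := by
    rw [← hk]
    exact Subgroup.orderOf_coe (⟨z, hzQ⟩ : Q)
  have h5 : orderOf z ∣ orderOf x := orderOf_dvd_of_pow_eq_one h4
  rw [hk'] at h5
  have h6 : k = 0 := by
    by_contra hne
    exact hreg ((dvd_pow_self p hne).trans h5)
  have h7 : z = 1 := by
    rw [h6, pow_zero, orderOf_eq_one_iff] at hk'
    exact hk'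
  have h8 : x * q * x⁻¹ = q := by
    have : x * q * x⁻¹ * q⁻¹ = 1 := h7
    exact mul_inv_eq_one.mp this
  calc q * x = (x * q * x⁻¹) * x := by rw [h8]
    _ = x * q := by group

/-- **From a nilpotent block of `N` to a nilpotent block of `G`.** -/
theorem nilpotent_of_nilpotent' [Fact p.Prime] (hM : IsPModular p M) (hN : N.Normal)
    (hidx : ∃ k : ℕ, N.index = p ^ k) {c : Set (IrrCharacter N)} (hc : IsPBlock M c)
    {B : Set (IrrCharacter G)} (hB : IsPBlock M B)
    (hBc : ∀ g : G, blockCoeff B g = subgroupBlockCoeff N c g)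
    (hnil : IsNilpotentBlock p M c) : IsNilpotentBlock p M B := by
  classical
  have hpp : p.Prime := Fact.out
  haveI := isPrime_of_pModular hM
  haveI := Cfsg.Agent.Lib.Char.Ortho.finite_irrCharacter (G := N)
  letI : Fintype (IrrCharacter N) := Fintype.ofFinite _
  haveI := Cfsg.Agent.Lib.Char.Ortho.finite_irrCharacter (G := G)
  letI : Fintype (IrrCharacter G) := Fintype.ofFinite _
  refine ⟨hB, fun Q e hQe x hxQ hxs hreg => ?_⟩
  obtain ⟨k, hk⟩ := id hidx
  have hxN : x ∈ N := mem_of_not_dvd_orderOf hN hk hreg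
  obtain ⟨X, hXd⟩ : ∃ X : Subgroup G, X = Q ⊓ N := ⟨_, rfl⟩
  have hXQ : X ≤ Q := hXd ▸ inf_le_left
  have hXN : X ≤ N := hXd ▸ inf_le_right
  have hX : (X.subgroupOf N).map N.subtype = X := Subgroup.map_subgroupOf_eq_of_le hXN
  have hQp := hQe.1.1
  obtain ⟨e₀, he₀, hle⟩ := exists_subpairLE hM hQe.1 hXQ
  have hxX : x ∈ Subgroup.normalizer (X : Set G) := by
    rw [Subgroup.mem_normalizer_iff, hXd]
    intro y
    have h1 := Subgroup.mem_normalizer_iff.mp hxQ y
    constructor
    · rintro ⟨h2, h3⟩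
      exact ⟨h1.mp h2, hN.conj_mem _ h3 _⟩
    · rintro ⟨h2, h3⟩
      refine ⟨h1.mpr h2, ?_⟩
      have := hN.conj_mem _ h3 x⁻¹
      simpa [mul_assoc] using this
  have hQx := map_conj_eq_of_mem_normalizer hxQ
  have hXx := map_conj_eq_of_mem_normalizer hxX
  have h1 := subpairLE_conj hXx hQx hle
  rw [blockMap_eq_of_stabilizes hQx hQe.1.2 hxs] at h1
  have h2 := subpairLE_unique_aux hM hQe.1 _ X hXQ rfl _ e₀ (isPBlock_blockMap _ he₀) h1 he₀ hle
  have hxs₀ := stabilizesBlock_of_eq hXx he₀ h2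
  have hX₀ := (isBrauerPairOf_iff_of_subpairLE hM hle hQe.2.1).mp hQe
  letI : Fintype (Subgroup.centralizer (X : Set G)) := Fintype.ofFinite _
  letI : Fintype (Subgroup.centralizer ((X.subgroupOf N) : Set N)) := Fintype.ofFinite _
  letI : Fintype (cenA N X) := Fintype.ofFinite _
  letI : Fintype ((cenA N X).subgroupOf (Subgroup.centralizer (X : Set G))) := Fintype.ofFinite _
  haveI := Cfsg.Agent.Lib.Char.Ortho.finite_irrCharacter (G := Subgroup.centralizer ((X.subgroupOf N) : Set N))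
  letI : Fintype (IrrCharacter (Subgroup.centralizer ((X.subgroupOf N) : Set N))) := Fintype.ofFinite _
  have hxK : x ∈ Subgroup.normalizer ((Subgroup.centralizer (X : Set G) : Subgroup G) : Set G) :=
    mem_normalizer_centralizer hxX
  have hxA : x ∈ Subgroup.normalizer ((cenA N X : Subgroup G) : Set G) := normalizer_cenA hN hxX
  obtain ⟨f, hf, hxf, ξ, hξ, φ, hφ, hover⟩ := exists_stable_covered hM cenA_le (cenA_normal hN)
    (cenA_index hN hidx hpp) he₀ hxK hxA hxs₀ hreg
  -- the formula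
  have hsupp : ∀ g, g ∉ N → blockCoeff B g = 0 := by
    intro g hg
    rw [hBc, subgroupBlockCoeff, dif_neg hg]
  have hinv : ∀ g h : G, blockCoeff B (h * g * h⁻¹) = blockCoeff B g := fun g h =>
    blockCoeff_conj_invariant B g h
  have hform := brauerOmega_of_over hN hsupp hinv hX hover
  have hcf : (fun n : N => blockCoeff B (n : G)) = blockCoeff c := by
    funext n
    rw [hBc, subgroupBlockCoeff, dif_pos n.2]
  rw [hcf] at hform
  have h3 : MemLocalIdeal M (brauerOmega (X.subgroupOf N) (blockCoeff c)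
      ((irrMap (cenNEquiv hX).symm φ : IrrCharacter (Subgroup.centralizer ((X.subgroupOf N) : Set N))) :
        Subgroup.centralizer ((X.subgroupOf N) : Set N) → ℂ) - 1) := by
    rw [← hform]
    exact hX₀.2.2 ξ hξ
  rw [brauerOmega_blockCoeff] at h3
  have hXp : IsPGroup p X := hQp.to_le hXQ
  have hQ'p : IsPGroup p (X.subgroupOf N) := (isPGroup_iff_of_map hX).mp hXp
  have hpair := isBrauerPairOf_blockOf hM hQ'p hc (irrMap (cenNEquiv hX).symm φ) h3
  -- stability
  have hx'Q : (⟨x, hxN⟩ : N) ∈ Subgroup.normalizer ((X.subgroupOf N) : Set N) :=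
    (normalizer_iff_of_map hX).mp hxX
  have hbl : blockOf M (((irrMap (cenNEquiv hX).symm φ : IrrCharacter (Subgroup.centralizer ((X.subgroupOf N) : Set N)))) :
        Subgroup.centralizer ((X.subgroupOf N) : Set N) → ℂ) = blockMap (cenNEquiv hX).symm f := by
    rw [isPBlock_eq_blockOf hf hφ, blockMap_blockOf]
  have hx's : StabilizesBlock (Subgroup.centralizer ((X.subgroupOf N) : Set N))
      (blockOf M (((irrMap (cenNEquiv hX).symm φ : IrrCharacter (Subgroup.centralizer ((X.subgroupOf N) : Set N)))) :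
        Subgroup.centralizer ((X.subgroupOf N) : Set N) → ℂ)) (⟨x, hxN⟩ : N) := by
    rw [hbl]
    refine stabilizesBlock_transport (cenNEquiv hX).symm (u := x) (u' := (⟨x, hxN⟩ : N))
      (mem_normalizer_centralizer hx'Q) (fun k k' hk' => ?_) hxf
    have := congrArg (fun n : N => (n : G)) hk'
    exact this
  have hreg' : IsPRegular p (⟨x, hxN⟩ : N) := by
    rw [IsPRegular, ← Subgroup.orderOf_coe]
    exact hreg
  have hfinal := hnil.2 (X.subgroupOf N) _ hpair (⟨x, hxN⟩ : N) hx'Q hx's hreg'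
  refine centralizes_of_inf hN hpp hxN hxQ hQp hreg fun z hz => ?_
  rw [← hXd] at hz
  have hzz : (⟨z, hXN hz⟩ : N) ∈ X.subgroupOf N := Subgroup.mem_subgroupOf.mpr hz
  have := Subgroup.mem_centralizer_iff.mp hfinal _ hzz
  exact (congrArg Subtype.val this).symm

end Main

end Cfsg.Agent.Lib.BlockNil.Index
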