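import Cfsg.Agent.Lib.BlockNil.MaxChar
import Cfsg.Agent.Lib.Char.DegDvd
import Cfsg.Agent.Lib.Char.Linear
import Cfsg.Agent.Lib.BlockT.Inflate

/-!
# Brauer pairs carrying a weight
-/

set_option linter.unusedSectionVars false
set_option linter.style.haveILetI false
set_option autoImplicit false

namespace Cfsg.Agent.Lib.BlockNil.Weight

open Cfsg MonoidAlgebra
open Cfsg.Agent.Lib.Blocks.Local Cfsg.Agent.Lib.Blocks.Central Cfsg.Agent.Lib.Blocks.Brauer
open Cfsg.Agent.Lib.Blocks.Induced Cfsg.Agent.Lib.Blocks.Weak Cfsg.Agent.Lib.Blocks.Third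
open Cfsg.Agent.Lib.Blocks.Defect Cfsg.Agent.Lib.Blocks.Defect2 Cfsg.Agent.Lib.BlockT.SylowIn
open Cfsg.Agent.Lib.Blocks.Inducing Cfsg.Agent.Lib.Blocks.FMT
open Cfsg.Agent.Lib.BlockH.Pairs Cfsg.Agent.Lib.BlockH.BrauerMap Cfsg.Agent.Lib.BlockH.Transport
open Cfsg.Agent.Lib.BlockH.Subpair Cfsg.Agent.Lib.BlockH.SubpairLE Cfsg.Agent.Lib.BlockH.ConjPair
open Cfsg.Agent.Lib.BlockH.MaxPair Cfsg.Agent.Lib.BlockH.Sylow Cfsg.Agent.Lib.BlockH.Defects
open Cfsg.Agent.Lib.BlockH.FusionB Cfsg.Agent.Lib.BlockH.StabBlock Cfsg.Agent.Lib.BlockH.StabDefect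
open Cfsg.Agent.Lib.BlockH.Descent Cfsg.Agent.Lib.BlockH.StableIndex
open Cfsg.Agent.Lib.BlockT.Normal
open Cfsg.Agent.Lib.BlockNil.MaxChar

universe u

variable {G : Type u} [Group G] [Fintype G] {M : Ideal AlgInt} {p : ℕ}

/-- Constituents of a character in a block with the idempotent of a stable block lie in that
block. -/
theorem constituent_mem {N : Subgroup G} {f : Set (IrrCharacter N)} [Fintype N] [M.IsPrime]
    (hN : N.Normal) (hf : IsPBlock M f)
    (hst : ∀ x : G, StabilizesBlock N f x) {F : Set (IrrCharacter G)}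
    (hFc : ∀ g, blockCoeff F g = subgroupBlockCoeff N f g) {χ : IrrCharacter G} (hχ : χ ∈ F)
    {θ : IrrCharacter N}
    (hcon : classInner (fun n : N => (χ : G → ℂ) n) (θ : N → ℂ) ≠ 0) : θ ∈ f := by
  classical
  haveI := Cfsg.Agent.Lib.Char.Ortho.finite_irrCharacter (G := G)
  letI : Fintype (IrrCharacter G) := Fintype.ofFinite _
  haveI := Cfsg.Agent.Lib.Char.Ortho.finite_irrCharacter (G := N)
  letI : Fintype (IrrCharacter N) := Fintype.ofFinite _
  have hinv : ∀ (t : G) (n : N), blockCoeff f ⟨t * n * t⁻¹, hN.conj_mem n n.2 t⟩ = blockCoeff f n := by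
    intro t n
    have h1 := qinv_subIdem_of_stable (M := M) (P := ⊤) N hf (fun u _ => hst u) t trivial (n : G)
    rwa [coeff_subIdem_of_mem N f n.2, coeff_subIdem_of_mem N f (hN.conj_mem n n.2 t)] at h1
  have h1 := sum_mul_eq_of_constituent hN χ.2 θ.2 hcon (fun n => blockCoeff f n) hinv
  have h3 : omegaHom χ (idem F) = (∑ n : N, blockCoeff f n * (θ : N → ℂ) n) / (θ : N → ℂ) 1 := by
    rw [omegaHom_apply, lin_apply, ← h1]
    congr 1
    rw [← sum_extendByZero_mul (fun n : N => blockCoeff f n) (χ : G → ℂ)]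
    refine Finset.sum_congr rfl fun g _ => ?_
    rw [coeff_idem, hFc]
    congr 1
    unfold subgroupBlockCoeff
    by_cases hg : g ∈ N
    · rw [dif_pos hg, Cfsg.Agent.Lib.Char.Induced.extendByZero_of_mem N _ hg]
    · rw [dif_neg hg, Cfsg.Agent.Lib.Char.Induced.extendByZero_of_not_mem N _ hg]
  have h4 : omegaHom θ (idem f) = (∑ n : N, blockCoeff f n * (θ : N → ℂ) n) / (θ : N → ℂ) 1 := by
    rw [omegaHom_apply, lin_apply]
    simp only [coeff_idem]
  have h5 := omegaHom_idem F χ
  rw [if_pos hχ, h3, ← h4, omegaHom_idem] at h5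
  by_contra hθ
  rw [if_neg hθ] at h5
  exact zero_ne_one h5

/-- A normal `p`-subgroup of a group with a character of defect zero is trivial. -/
theorem eq_bot_of_defect_zero [Fact p.Prime] {H : Type u} [Group H] [Fintype H] (hM : IsPModular p M)
    (φ : IrrCharacter H) (hv : (charDegree (φ : H → ℂ)).factorization p = (Nat.card H).factorization p)
    {R : Subgroup H} (hR : R.Normal) (hRp : IsPGroup p R) : R = ⊥ := by
  classical
  haveI := isPrime_of_pModular hM
  haveI := Cfsg.Agent.Lib.Char.Ortho.finite_irrCharacter (G := H)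
  letI : Fintype (IrrCharacter H) := Fintype.ofFinite _
  have hbot := Cfsg.Agent.Lib.Blocks.CentralDefect.isDefectGroup_of_central hM
    (D := (⊥ : Subgroup H)) IsPGroup.of_bot bot_le φ (by
      rw [Subgroup.index_bot]
      exact hv)
  have hB : IsPBlock M (blockOf M (φ : H → ℂ)) := ⟨φ, rfl⟩
  exact le_bot_iff.mp (normal_le_defect hM hB hbot hR hRp)

/-- **A weight forces central defect on the block and `O_p(T) = Q`.** -/
theorem weight_main [Fact p.Prime] (hM : IsPModular p M) {Q : Subgroup G}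
    {e : Set (IrrCharacter (Subgroup.centralizer (Q : Set G)))} (hQe : IsBrauerPair p M Q e)
    {T : Subgroup G} (hT : ∀ y : G, y ∈ T ↔ y ∈ Subgroup.normalizer (Q : Set G) ∧
      StabilizesBlock (Subgroup.centralizer (Q : Set G)) e y)
    {F' : Set (IrrCharacter T)} (hF' : IsPBlock M F')
    (hF'e : ∀ t : T, blockCoeff F' t = subgroupBlockCoeff (Subgroup.centralizer (Q : Set G)) e (t : G))
    {χ : IrrCharacter T} (hχ : χ ∈ F')
    (hχQ : ∀ q : G, q ∈ Q → ∀ t : T, ∀ t' : T, (t' : G) = q * (t : G) → (χ : T → ℂ) t' = (χ : T → ℂ) t)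
    (hdeg : (charDegree (χ : T → ℂ)).factorization p + (Nat.card Q).factorization p =
      (Nat.card T).factorization p) :
    IsDefectGroup p M e (cenZ Q) ∧
      ∀ R : Subgroup G, R ≤ T → IsPGroup p R → (∀ t ∈ T, t ∈ Subgroup.normalizer (R : Set G)) → R ≤ Q := by
  classical
  have hpp : p.Prime := Fact.out
  haveI := isPrime_of_pModular hM
  letI : Fintype (Subgroup.centralizer (Q : Set G)) := Fintype.ofFinite _
  haveI := Cfsg.Agent.Lib.Char.Ortho.finite_irrCharacter (G := Subgroup.centralizer (Q : Set G))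
  letI : Fintype (IrrCharacter (Subgroup.centralizer (Q : Set G))) := Fintype.ofFinite _
  letI : Fintype T := Fintype.ofFinite _
  have hCN : Subgroup.centralizer (Q : Set G) ≤ Subgroup.normalizer (Q : Set G) := centralizer_le_normalizer'' Q
  have hQT : Q ≤ T := fun q hq => (hT q).mpr (P_le_stabSub hQe hM hq)
  have hCT : Subgroup.centralizer (Q : Set G) ≤ T :=
    fun c hc => (hT c).mpr ⟨hCN hc, stabilizesBlock_of_mem Q e hc⟩
  have hQn : (Q.subgroupOf T).Normal :=
    (Subgroup.normal_subgroupOf_iff_le_normalizer hQT).mpr (fun t ht => ((hT t).mp ht).1)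
  have hNn : ((Subgroup.centralizer (Q : Set G)).subgroupOf T).Normal :=
    (Subgroup.normal_subgroupOf_iff_le_normalizer hCT).mpr
      (fun t ht => mem_normalizer_centralizer ((hT t).mp ht).1)
  haveI := hQn
  letI : Fintype (T ⧸ Q.subgroupOf T) := Fintype.ofFinite _
  have hker : ∀ k ∈ (QuotientGroup.mk' (Q.subgroupOf T)).ker, (χ : T → ℂ) k = (χ : T → ℂ) 1 := by
    intro k hk
    rw [QuotientGroup.ker_mk'] at hk
    exact hχQ (k : G) (Subgroup.mem_subgroupOf.mp hk) 1 k (by simp)
  obtain ⟨φ, hφ, hχφ⟩ := Cfsg.Agent.Lib.Char.Linear.isIrrCharacter_descend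
    (QuotientGroup.mk' (Q.subgroupOf T)) (QuotientGroup.mk'_surjective _) χ.2 hker
  have hdegφ : charDegree φ = charDegree (χ : T → ℂ) := by
    rw [charDegree, charDegree, hχφ]
    simp
  have hcardT : Nat.card (Q.subgroupOf T) * Nat.card (T ⧸ Q.subgroupOf T) = Nat.card T :=
    Subgroup.card_mul_index _
  have hcardQ : Nat.card (Q.subgroupOf T) = Nat.card Q := card_subgroupOf_of_le' hQT
  have hTfac : (Nat.card Q).factorization p + (Nat.card (T ⧸ Q.subgroupOf T)).factorization p =
      (Nat.card T).factorization p := by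
    rw [← hcardT, hcardQ, Nat.factorization_mul Nat.card_pos.ne' Nat.card_pos.ne']
    rfl
  have hv : (charDegree φ).factorization p = (Nat.card (T ⧸ Q.subgroupOf T)).factorization p := by
    rw [hdegφ]
    omega
  constructor
  · -- the block of `C_G(Q)`
    set K : Subgroup (T ⧸ Q.subgroupOf T) :=
      ((Subgroup.centralizer (Q : Set G)).subgroupOf T).map (QuotientGroup.mk' _) with hK
    have hKn : K.Normal := hNn.map _ (QuotientGroup.mk'_surjective _)
    letI : Fintype K := Fintype.ofFinite _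
    have hφc : IsClassFunction (T ⧸ Q.subgroupOf T) φ :=
      Cfsg.Agent.Lib.Char.Basic.isClassFunction_of_isIrrCharacter hφ
    have hφK : IsClassFunction K (fun k : K => φ k) := fun g h => by
      exact hφc (g : T ⧸ Q.subgroupOf T) (h : T ⧸ Q.subgroupOf T)
    have hφ1 : φ 1 ≠ 0 := Cfsg.Agent.Lib.Char.Complete.irr_one_ne_zero hφ
    have hne : (fun k : K => φ k) ≠ 0 := by
      intro h
      have := congrFun h 1
      simp at this
      exact hφ1 this
    obtain ⟨η, hη, hcon⟩ := Cfsg.Agent.Lib.Char.Clifford.exists_irr_constituent hφK hne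
    obtain ⟨a, b, hab, hdvd⟩ := Cfsg.Agent.Lib.Char.DegDvd.dvd_index_of_constituent hKn hη hφ hcon
    -- the map `C_G(Q) → K`
    let f₀ : Subgroup.centralizer (Q : Set G) →* T ⧸ Q.subgroupOf T :=
      (QuotientGroup.mk' _).comp (Subgroup.inclusion hCT)
    have hf₀ : ∀ c, f₀ c ∈ K := fun c =>
      ⟨Subgroup.inclusion hCT c, Subgroup.mem_subgroupOf.mpr c.2, rfl⟩
    let π : Subgroup.centralizer (Q : Set G) →* K := f₀.codRestrict K hf₀
    have hπ : Function.Surjective π := by
      rintro ⟨_, n, hn, rfl⟩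
      refine ⟨⟨n, Subgroup.mem_subgroupOf.mp hn⟩, ?_⟩
      apply Subtype.ext
      rfl
    have hker : π.ker = cenZ Q := by
      ext c
      rw [MonoidHom.mem_ker]
      constructor
      · intro h
        have h1 : f₀ c = 1 := congrArg Subtype.val h
        have h2 : (Subgroup.inclusion hCT c : T) ∈ Q.subgroupOf T :=
          (QuotientGroup.eq_one_iff _).mp h1
        exact Subgroup.mem_subgroupOf.mpr (Subgroup.mem_inf.mpr ⟨Subgroup.mem_subgroupOf.mp h2, c.2⟩)
      · intro h
        apply Subtype.ext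
        have h1 := (Subgroup.mem_inf.mp (Subgroup.mem_subgroupOf.mp h)).1
        exact (QuotientGroup.eq_one_iff _).mpr (Subgroup.mem_subgroupOf.mpr h1)
    have hindex : (cenZ Q).index = Nat.card K := by
      rw [← hker, Subgroup.index_ker, MonoidHom.range_eq_top.mpr hπ, Subgroup.card_top]
    -- the constituent
    let θ₀ : IrrCharacter (Subgroup.centralizer (Q : Set G)) :=
      ⟨η ∘ π, Cfsg.Agent.Lib.Char.Conj.isIrrCharacter_comp π hπ hη⟩
    have hdegθ : charDegree (θ₀ : Subgroup.centralizer (Q : Set G) → ℂ) = charDegree η := by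
      change charDegree (η ∘ π) = _
      rw [charDegree, charDegree]
      simp
    -- degrees
    have hηpos : charDegree η ≠ 0 := (Cfsg.Agent.Lib.Char.Degree.charDegree_pos hη).ne'
    have hφpos : charDegree φ ≠ 0 := (Cfsg.Agent.Lib.Char.Degree.charDegree_pos hφ).ne'
    have habn : charDegree φ = (a * b) * charDegree η := by
      have h1 := Cfsg.Agent.Lib.Char.Degree.charDegree_natCast (Cfsg.Agent.Lib.Char.Basic.isCharacter_of_isIrrCharacter hφ)
      have h2 := Cfsg.Agent.Lib.Char.Degree.charDegree_natCast (Cfsg.Agent.Lib.Char.Basic.isCharacter_of_isIrrCharacter hη)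
      rw [← h1, ← h2] at hab
      exact_mod_cast hab
    have habpos : a * b ≠ 0 := by
      intro h
      rw [h, zero_mul] at habn
      exact hφpos habn
    have h1 : (charDegree φ).factorization p = (a * b).factorization p + (charDegree η).factorization p := by
      rw [habn, Nat.factorization_mul habpos hηpos]
      rfl
    have h2 : (a * b).factorization p ≤ K.index.factorization p :=
      (Nat.factorization_le_iff_dvd habpos Subgroup.index_ne_zero_of_finite).mpr hdvd p
    have h3 : (Nat.card K).factorization p + K.index.factorization p =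
        (Nat.card (T ⧸ Q.subgroupOf T)).factorization p := by
      rw [← Subgroup.card_mul_index K, Nat.factorization_mul Nat.card_pos.ne' Subgroup.index_ne_zero_of_finite]
      rfl
    have h4 : (charDegree η).factorization p ≤ (Nat.card K).factorization p :=
      (Nat.factorization_le_iff_dvd hηpos Nat.card_pos.ne').mpr
        (Cfsg.Agent.Lib.Char.Degree.charDegree_dvd_card hη) p
    have hηv : (charDegree η).factorization p = (Nat.card K).factorization p := by omega
    have hdeg' : (charDegree (θ₀ : Subgroup.centralizer (Q : Set G) → ℂ)).factorization p =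
        (cenZ Q).index.factorization p := by
      rw [hdegθ, hηv, hindex]
    have hdef := Cfsg.Agent.Lib.Blocks.CentralDefect.isDefectGroup_of_central hM
      (cenZ_isPGroup hQe.1) cenZ_le_center θ₀ hdeg'
    -- `θ₀ ∈ e`
    let σ := Subgroup.subgroupOfEquivOfLe hCT
    letI : Fintype ((Subgroup.centralizer (Q : Set G)).subgroupOf T) := Fintype.ofFinite _
    let θ' : IrrCharacter ((Subgroup.centralizer (Q : Set G)).subgroupOf T) := irrMap σ.symm θ₀
    have hcon' : classInner (fun n : (Subgroup.centralizer (Q : Set G)).subgroupOf T => (χ : T → ℂ) n)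
        (θ' : _ → ℂ) ≠ 0 := by
      intro h0
      apply hcon
      let π' : (Subgroup.centralizer (Q : Set G)).subgroupOf T →* K := π.comp σ.toMonoidHom
      have hπ' : Function.Surjective π' := hπ.comp σ.surjective
      have hsum := Cfsg.Agent.Lib.BlockT.Inflate.sum_comp_surj π' hπ'
        (fun k : K => φ k * (starRingEnd ℂ) (η k))
      rw [classInner] at h0 ⊢
      have h5 : ∀ n : (Subgroup.centralizer (Q : Set G)).subgroupOf T,
          (χ : T → ℂ) n * (starRingEnd ℂ) ((θ' : _ → ℂ) n) =
            φ (π' n) * (starRingEnd ℂ) (η (π' n)) := by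
        intro n
        have e1 : (χ : T → ℂ) n = φ (π' n) := by
          rw [hχφ]
          rfl
        have e2 : (θ' : _ → ℂ) n = η (π' n) := by
          rw [irrMap_apply]
          rfl
        rw [e1, e2]
      rw [Finset.sum_congr rfl (fun n _ => h5 n), hsum] at h0
      have hc1 : (Nat.card ((Subgroup.centralizer (Q : Set G)).subgroupOf T) : ℂ)⁻¹ ≠ 0 :=
        inv_ne_zero (by exact_mod_cast Nat.card_pos.ne')
      have hc2 : (Nat.card π'.ker : ℂ) ≠ 0 := by exact_mod_cast Nat.card_pos.ne'
      have h6 := (mul_eq_zero.mp h0).resolve_left hc1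
      have h7 := (mul_eq_zero.mp h6).resolve_left hc2
      rw [h7, mul_zero]
    have hFc' : ∀ t : T, blockCoeff F' t = subgroupBlockCoeff ((Subgroup.centralizer (Q : Set G)).subgroupOf T)
        (subBlock hCT e) t := by
      intro t
      rw [subgroupBlockCoeff_subBlock, hF'e]
    have hst' : ∀ t : T, StabilizesBlock ((Subgroup.centralizer (Q : Set G)).subgroupOf T) (subBlock hCT e) t :=
      fun t => stabilizesBlock_subBlock hCT (mem_normalizer_centralizer ((hT t).mp t.2).1) ((hT t).mp t.2).2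
    have hθ'e := constituent_mem hNn (isPBlock_subBlock hCT hQe.2) hst' hFc' hχ hcon'
    have hθ₀e : θ₀ ∈ e := by
      have := (mem_blockMap_iff σ.symm e θ').mp hθ'e
      have h8 : irrMap σ.symm.symm θ' = θ₀ := (irrEquiv σ.symm).left_inv θ₀
      rwa [h8] at this
    rw [isPBlock_eq_blockOf hQe.2 hθ₀e]
    exact hdef
  · intro R hRT hRp hRn
    haveI := Cfsg.Agent.Lib.Char.Ortho.finite_irrCharacter (G := T ⧸ Q.subgroupOf T)
    letI : Fintype (IrrCharacter (T ⧸ Q.subgroupOf T)) := Fintype.ofFinite _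
    let φ' : IrrCharacter (T ⧸ Q.subgroupOf T) := ⟨φ, hφ⟩
    have hRs : (R.subgroupOf T).Normal :=
      (Subgroup.normal_subgroupOf_iff_le_normalizer hRT).mpr hRn
    have hRb : ((R.subgroupOf T).map (QuotientGroup.mk' (Q.subgroupOf T))).Normal :=
      hRs.map _ (QuotientGroup.mk'_surjective _)
    have hRp' : IsPGroup p ((R.subgroupOf T).map (QuotientGroup.mk' (Q.subgroupOf T))) := by
      have h0 : IsPGroup p (R.subgroupOf T) := hRp.comap_of_injective _ (Subgroup.subtype_injective _)
      exact h0.map _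
    have hle := eq_bot_of_defect_zero hM φ' hv hRb hRp'
    intro r hr
    have h1 : ((⟨r, hRT hr⟩ : T) : T ⧸ Q.subgroupOf T) ∈ ((R.subgroupOf T).map (QuotientGroup.mk' (Q.subgroupOf T))) :=
      ⟨⟨r, hRT hr⟩, Subgroup.mem_subgroupOf.mpr hr, rfl⟩
    rw [hle] at h1
    have h2 := (QuotientGroup.eq_one_iff _).mp ((Subgroup.mem_bot).mp h1)
    exact Subgroup.mem_subgroupOf.mp h2

end Cfsg.Agent.Lib.BlockNil.Weight
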